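import Mathlib
import Cfsg.Agent.PLocal.CoreBar
import Cfsg.Agent.PLocal.GoldCocyclic
import Cfsg.Agent.PLocal.LBalance
import Cfsg.Agent.PLocal.SigCoprime
import Cfsg.Agent.FGS.SolvRad
import Cfsg.Agent.S0205

/-!
Goldschmidt's signalizer functor attached to a core-separated pair of four-groups.
-/

set_option autoImplicit false
set_option linter.unusedSectionVars false

namespace Cfsg.Agent.SigS

open Cfsg Subgroup Cfsg.Agent.PLocal Cfsg.Agent.PLocal.Amb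
open scoped commutatorElement

variable {G : Type*} [Group G]

theorem comm_le_cent_of_norm {U V L : Subgroup G} (hU : U ≤ 𝐍[L]) (hV : V ≤ 𝐂[L]) :
    ⁅U, V⁆ ≤ 𝐂[L] := commutator_le.2 fun u hu v hv => by
  rw [commutatorElement_def]
  exact mul_mem (conj_mem_of_mem_normalizer (le_normalizer_centralizer hU hu) (hV hv))
    (inv_mem (hV hv))

theorem comm_le_cent_of_cj {U V L : Subgroup G} (h : ∀ g ∈ U, V ≤ 𝐂[cj(g, L)]) :
    ⁅U, V⁆ ≤ 𝐂[L] := commutator_le.2 fun u hu v hv => by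
  rw [commutatorElement_def]
  have h1 := h _ (inv_mem hu) hv
  have h2 := h 1 (one_mem _) hv
  rw [centralizer_cj, mem_cj, inv_inv] at h1
  rw [cj_one] at h2
  exact mul_mem h1 (inv_mem h2)

theorem le_cent_cj {B L : Subgroup G} {g : G} (hg : g ∈ 𝐂[B]) :
    B ≤ 𝐂[cj(g, L)] ↔ B ≤ 𝐂[L] := by
  rw [centralizer_cj, le_cj_iff, cj_of_mem_normalizer (inv_mem (centralizer_le_normalizer' B hg))]

/-- The key computation in a group with trivial core. -/
theorem comm_le_pCore [Finite G] {p : ℕ} [Fact p.Prime] (hO : pPrimeCore p G = ⊥)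
    {B₁ B₂ V W E : Subgroup G} {x : G} (hx : x ^ p ^ 1 = 1)
    (hsep : ∀ L : Subgroup G, IsComponent L → B₁ ≤ 𝐂[L] ∨ B₂ ≤ 𝐂[L])
    (hV : V ≤ centralizerPPrimeCore p x) (hV1 : V ≤ ⁅V, B₁⁆) (hW : W ≤ V)
    (hE : E ≤ 𝐂[B₁]) (h12 : B₂ ≤ 𝐂[B₁]) : ⁅W, ⁅E, B₂⁆⁆ ≤ pCore p G := by
  have hE1 : ⁅E, B₂⁆ ≤ 𝐂[B₁] := (commutator_mono hE h12).trans (commutator_le_self _)
  refine (le_inf ?_ ?_).trans (centralizer_layer_inf_centralizer_pCore_le hO)
  · refine le_centralizer_iff.1 (commutator_eq_bot_iff_le_centralizer.1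
      (commutator_layer_eq_bot_iff.2 fun L hL => ?_))
    rw [commutator_comm, commutator_eq_bot_iff_le_centralizer]
    have hn : ∀ L : Subgroup G, IsComponent L → V ≤ 𝐍[L] := fun L hL =>
      hV.trans (centralizerPPrimeCore_le_normalizer_comp hO hx hL)
    by_cases h : B₁ ≤ 𝐂[L]
    · rw [commutator_comm]
      exact comm_le_cent_of_cj fun g hg => hW.trans (hV1.trans (comm_le_cent_of_norm
        (hn _ (comp_conj hL g)) ((le_cent_cj (hE1 hg)).2 h)))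
    · exact comm_le_cent_of_norm (hW.trans (hn L hL)) (comm_le_cent_of_cj fun g hg =>
        (hsep _ (comp_conj hL g)).resolve_left fun h1 => h ((le_cent_cj (hE hg)).1 h1))
  · rw [commutator_comm]
    exact comm_le_cent_of_norm (by rw [normalizer_eq_top]; exact le_top)
      (hW.trans (hV.trans (centralizerPPrimeCore_le_centralizer_pCore hx)))

theorem cb_comm {p : ℕ} {Y A B : Subgroup G} (hA : A ≤ Y) (hB : B ≤ Y) :
    cb p Y ⁅A, B⁆ = ⁅cb p Y A, cb p Y B⁆ := by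
  rw [cb, cb, cb, ← map_commutator]
  congr 1
  apply map_injective Y.subtype_injective
  rw [map_commutator, map_subgroupOf_of_le hA, map_subgroupOf_of_le hB, map_subgroupOf_of_le
    ((commutator_mono hA hB).trans (commutator_le_self _))]

theorem cb_core_le [Finite G] {p : ℕ} [Fact p.Prime] {Y : Subgroup G} {a : Y}
    (ha : (a : G) ^ p ^ 1 = 1) :
    cb p Y (centralizerPPrimeCore p (a : G)) ≤ centralizerPPrimeCore p (cbHom p Y a) := by
  rw [← map_centralizerPPrimeCore_of_coprime (k := 1) _ (cbHom_surjective p Y)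
    (coprime_ker_cbHom p Y) (Subtype.ext ha)]
  exact map_mono (centralizerPPrimeCore_subgroupOf_le Y a)

theorem cb_cent [Finite G] {p : ℕ} [Fact p.Prime] {Y P : Subgroup G} (hP : IsPGroup p P)
    (h : P ≤ Y) : cb p Y 𝐂[P] = 𝐂[cb p Y P] := by
  rw [cb, cb, ← centralizer_subgroupOf h, map_centralizer_of_isPGroup _ (cbHom_surjective p Y) _
    (Amb.isPGroup_subgroupOf hP Y) (coprime_ker_cbHom p Y)]

/-- The solvable radical of `H` in the ambient group. -/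
abbrev srOf (H : Subgroup G) : Subgroup G := (solvableRadical H).map H.subtype

theorem le_srOf {N H : Subgroup G} (h1 : N ≤ H) (h2 : H ≤ 𝐍[N]) (h3 : Group.IsSolvable N) :
    N ≤ srOf H := by
  rw [← map_subgroupOf_of_le h1]
  exact map_mono (FGS.le_solvableRadical (normal_subgroupOf' h2)
    (Group.isSolvable_of_isSolvable_injective (f := (subgroupOfEquivOfLe h1).toMonoidHom)
      (subgroupOfEquivOfLe h1).injective))

/-- The elements of `H` whose commutators with `E` lie in the normal subgroup `R` of `H`. -/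
def centMod (H E R : Subgroup G) (h : H ≤ 𝐍[R]) : Subgroup G where
  carrier := {x | x ∈ H ∧ ∀ e ∈ E, ⁅x, e⁆ ∈ R}
  one_mem' := ⟨one_mem _, fun e _ => by simp⟩
  mul_mem' := fun {x y} hx hy => ⟨mul_mem hx.1 hy.1, fun e he => by
    rw [show ⁅x * y, e⁆ = x * ⁅y, e⁆ * x⁻¹ * ⁅x, e⁆ by simp only [commutatorElement_def]; group]
    exact mul_mem (conj_mem_of_mem_normalizer (h hx.1) (hy.2 e he)) (hx.2 e he)⟩
  inv_mem' := fun {x} hx => ⟨inv_mem hx.1, fun e he => by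
    rw [show ⁅x⁻¹, e⁆ = x⁻¹ * ⁅x, e⁆⁻¹ * x by simp only [commutatorElement_def]; group]
    exact inv_conj_mem_of_mem_normalizer (h hx.1) (inv_mem (hx.2 e he))⟩

theorem le_centMod {H E R W : Subgroup G} {h : H ≤ 𝐍[R]} :
    W ≤ centMod H E R h ↔ W ≤ H ∧ ⁅W, E⁆ ≤ R :=
  ⟨fun h1 => ⟨fun _ hx => (h1 hx).1, commutator_le.2 fun _ hx => (h1 hx).2⟩,
    fun h1 _ hx => ⟨h1.1 hx, fun _ he => h1.2 (commutator_mem_commutator hx he)⟩⟩

variable [Finite G]

theorem solv_core (H : Subgroup G) : Group.IsSolvable (ppcOf 2 H) :=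
  S0205.result (Nat.coprime_two_right.1 (coprime_ppcOf 2 H))

/-- Separation condition at `c`. -/
def Sep (A₁ A₂ : Subgroup G) (c : G) : Prop :=
  ∀ L : Subgroup (centralizer ({c} : Set G) ⧸ pPrimeCore 2 (centralizer ({c} : Set G))),
    IsComponent L → cb 2 _ A₁ ≤ 𝐂[L] ∨ cb 2 _ A₂ ≤ 𝐂[L]

/-- Half of the functor. -/
abbrev th (A₁ : Subgroup G) (a : G) : Subgroup G :=
  ⁅centralizerPPrimeCore 2 a, A₁⁆ ⊔ (centralizerPPrimeCore 2 a ⊓ ppcOf 2 𝐂[A₁])

theorem th_le {A₁ : Subgroup G} {a : G} (ha : A₁ ≤ centralizer {a}) :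
    th A₁ a ≤ centralizerPPrimeCore 2 a :=
  sup_le (le_normalizer_iff_commutator_le_left.1
    (ha.trans (centralizer_le_normalizer_centralizerPPrimeCore a))) inf_le_left

theorem norm_th {A A₁ : Subgroup G} {a : G} (ha : A ≤ centralizer {a}) (h1 : A ≤ 𝐂[A₁]) :
    A ≤ 𝐍[th A₁ a] :=
  have h2 := ha.trans (centralizer_le_normalizer_centralizerPPrimeCore (p := 2) a)
  le_normalizer_sup (le_normalizer_commutator h2 (h1.trans (centralizer_le_normalizer' _)))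
    (le_normalizer_inf h2 (h1.trans (le_normalizer_ppcOf 2 _)))

theorem nd_core (a : G) : ¬ 2 ∣ Nat.card (centralizerPPrimeCore 2 a) :=
  Nat.prime_two.coprime_iff_not_dvd.1 (centralizerPPrimeCore_coprime a).symm

theorem key1 {A₁ A₂ : Subgroup G} {a : G} (hA : IsElementaryAbelian 2 A₁) (h4 : Nat.card A₁ = 4)
    (h12 : A₂ ≤ 𝐂[A₁]) (ha : A₁ ≤ centralizer {a}) (ha2 : a ^ 2 ^ 1 = 1)
    (hsep : ∀ c ∈ A₁, c ≠ 1 → Sep A₁ A₂ c) :
    ⁅th A₁ a ⊓ 𝐂[A₁], ⁅𝐂[A₁], A₂⁆⁆ ≤ srOf 𝐂[A₁] := by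
  have hR : 𝐂[A₁] ≤ 𝐍[srOf 𝐂[A₁]] := le_normalizer_map_subtype _
  have hE : ⁅𝐂[A₁], A₂⁆ ≤ 𝐂[A₁] := (commutator_mono le_rfl h12).trans (commutator_le_self _)
  have hn := ha.trans (centralizer_le_normalizer_centralizerPPrimeCore (p := 2) a)
  set O := centralizerPPrimeCore 2 a with hO
  have hYO : ⁅O, A₁⁆ ≤ O := le_normalizer_iff_commutator_le_left.1 hn
  refine (le_centMod (h := hR)).1 ?_ |>.2
  rw [th, sup_comm, sup_inf_of_le_normalizer (inf_le_right.trans (ppcOf_le _ _))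
    (inf_le_left.trans (normalizer_commutator_ge_left _ _))]
  refine sup_le (le_centMod.2 ⟨inf_le_right.trans (ppcOf_le _ _), ?_⟩) ?_
  · refine le_trans ?_ (le_srOf (ppcOf_le 2 _) (le_normalizer_ppcOf 2 _) (solv_core _))
    exact (commutator_mono inf_le_right hE).trans
      (le_normalizer_iff_commutator_le_left.1 (le_normalizer_ppcOf 2 _))
  have hcop := Sig.ea_cop hA (nd_core a)
  refine Gold.cent_le_of_cocyclic hA.1 le_rfl (FGS.isSolvable_of_le hYO (solv_core _))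
    (hcop.coprime_dvd_right (card_dvd_of_le hYO)) (normalizer_commutator_ge_right _ _)
    (Solv.coprime_commutator_commutator _ _ hn hcop (.inl (Sig.ea_solv hA))) ?_
  rintro B₀ hB₀ ⟨b, hb, hB⟩
  obtain ⟨c, hc, hc1⟩ : ∃ c ∈ B₀, c ≠ 1 := by
    refine (bot_or_exists_ne_one B₀).resolve_left fun h => ?_
    rw [h, bot_sup_eq] at hB
    have := orderOf_dvd_of_pow_eq_one (hA.2 b hb)
    rw [← Nat.card_zpowers, hB, h4] at this
    omega
  refine le_centMod.2 ⟨inf_le_right, ?_⟩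
  set Y := centralizer ({c} : Set G) with hY
  have hCY : 𝐂[A₁] ≤ Y := centralizer_le (by simpa using hB₀ hc)
  have hAC : A₁ ≤ 𝐂[A₁] := Sig.ea_le_cent hA le_rfl
  have hU : A₁ ≤ 𝐍[⁅O, A₁⁆ ⊓ 𝐂[B₀]] := le_normalizer_inf (normalizer_commutator_ge_right _ _)
    (Sig.ea_norm_cent hA hB₀)
  set U := ⁅O, A₁⁆ ⊓ 𝐂[B₀] with hUdef
  have hVU : ⁅U, A₁⁆ ≤ U := le_normalizer_iff_commutator_le_left.1 hU
  have hUO : U ≤ O := inf_le_left.trans hYO
  have hUY : U ≤ Y := inf_le_right.trans (centralizer_le (by simpa using hc))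
  have haY : a ∈ Y := mem_centralizer_singleton_iff.2
    (mem_centralizer_singleton_iff.1 (ha (hB₀ hc))).symm
  have h1 := comm_le_pCore (Grp.pPrimeCore_quotient_pPrimeCore 2 Y) (B₁ := cb 2 Y A₁)
    (B₂ := cb 2 Y A₂) (V := cb 2 Y ⁅U, A₁⁆) (W := cb 2 Y (⁅U, A₁⁆ ⊓ 𝐂[A₁])) (E := cb 2 Y 𝐂[A₁])
    (x := cbHom 2 Y ⟨a, haY⟩) (by rw [← map_pow]; exact (congrArg _ (Subtype.ext ha2)).trans (map_one _))
    (hsep c (hB₀ hc) hc1) ((cb_mono (hVU.trans hUO)).trans (cb_core_le (a := ⟨a, haY⟩) ha2))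
    (by rw [← cb_comm (hVU.trans hUY) (hAC.trans hCY), Solv.coprime_commutator_commutator _ _ hU
      (hcop.coprime_dvd_right (card_dvd_of_le hUO)) (.inl (Sig.ea_solv hA))])
    (cb_mono inf_le_left) (cb_le_centralizer le_rfl) (cb_le_centralizer h12)
  rw [← cb_comm hCY (h12.trans hCY), ← cb_comm (inf_le_right.trans hCY) (hE.trans hCY)] at h1
  have h2 : ⁅⁅U, A₁⁆ ⊓ 𝐂[A₁], ⁅𝐂[A₁], A₂⁆⁆ ≤ 𝐂[A₁] :=
    (commutator_mono inf_le_right hE).trans (commutator_le_self _)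
  set P := ((pCore 2 (Y ⧸ pPrimeCore 2 Y)).comap (cbHom 2 Y)).map Y.subtype with hP
  refine le_trans (le_inf (fun x hx => ?_) h2) (le_srOf (N := P ⊓ 𝐂[A₁]) inf_le_right
    (le_normalizer_inf (hCY.trans (le_normalizer_map_subtype _)) le_normalizer)
    (FGS.isSolvable_of_le inf_le_left (FGS.isSolvable_map _ (FGS.isSolvable_comap _
      (Solv.isSolvable_of_isPGroup (Grp.pCore_isPGroup 2 _)) ?_))))
  · exact ⟨⟨x, hCY (h2 hx)⟩, h1 (mem_cb hx), rfl⟩
  · rw [QuotientGroup.ker_mk']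
    exact S0205.result (Nat.coprime_two_right.1 (Grp.pPrimeCore_coprime 2 _))

theorem comm_zpowers_le {L B₁ B₂ : Subgroup G} {x : G} (h1 : B₁ ≤ 𝐂[L]) (h12 : B₂ ≤ 𝐂[B₁])
    (hx : x ∈ B₁ ⊔ B₂) : ⁅L, zpowers x⁆ ≤ ⁅L, B₂⁆ := by
  refine commutator_le.2 fun l hl y hy => ?_
  obtain ⟨u, hu, v, hv, rfl⟩ := (mem_sup_of_le_normalizer_left
    (h12.trans (centralizer_le_normalizer' _))).1 (zpowers_le.2 hx hy)
  have e1 : l * u = u * l := h1 hu l hl
  have e2 : u * v = v * u := h12 hv u hu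
  have : ⁅l, u * v⁆ = ⁅l, v⁆ := by
    have e3 : u * l⁻¹ = l⁻¹ * u := by
      rw [mul_inv_eq_iff_eq_mul, mul_assoc, ← e1, inv_mul_cancel_left]
    simp only [commutatorElement_def]
    rw [e2]
    calc l * (v * u) * l⁻¹ * (v * u)⁻¹ = l * v * (u * l⁻¹) * u⁻¹ * v⁻¹ := by group
      _ = _ := by rw [e3]; group
  exact this ▸ commutator_mem_commutator hl hv

theorem key2 {A₁ A₂ Z : Subgroup G} {a b : G} (hA : IsElementaryAbelian 2 A₁)
    (h4 : Nat.card A₁ = 4) (h12 : A₂ ≤ 𝐂[A₁]) (ha : A₁ ≤ centralizer {a}) (ha2 : a ^ 2 ^ 1 = 1)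
    (hsep : ∀ c ∈ A₁, c ≠ 1 → Sep A₁ A₂ c) (hb1 : A₁ ≤ centralizer {b})
    (hb2 : A₂ ≤ centralizer {b}) (haA : a ∈ A₁ ⊔ A₂) (hZ : Z ≤ th A₁ a)
    (hZb : Z ≤ centralizer {b}) (hZn : A₁ ≤ 𝐍[Z])
    {L : Subgroup (centralizer ({b} : Set G) ⧸ pPrimeCore 2 (centralizer ({b} : Set G)))}
    (hL : IsComponent L) (h1 : cb 2 _ A₁ ≤ 𝐂[L])
    (h2 : ⁅L, zpowers (cbHom 2 _ ⟨a, sup_le hb1 hb2 haA⟩)⁆ = L) :
    ⁅L, cb 2 (centralizer ({b} : Set G)) Z⁆ = ⊥ := by
  let H := centralizer ({b} : Set G)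
  have hZO := hZ.trans (th_le ha)
  have hn : cb 2 H Z ≤ 𝐍[L] := ((cb_mono hZO).trans (cb_core_le (a := ⟨a, sup_le hb1 hb2 haA⟩)
    ha2)).trans (centralizerPPrimeCore_le_normalizer_comp (k := 1)
      (Grp.pPrimeCore_quotient_pPrimeCore 2 H)
      (by rw [← map_pow]; exact (congrArg _ (Subtype.ext ha2)).trans (map_one _)) hL)
  rw [commutator_comm, commutator_eq_bot_iff_le_centralizer,
    ← Solv.coprime_commutator_sup_centralizer A₁ Z hZn
      (Sig.ea_cop hA (Sig.not_dvd_of_le hZO (nd_core a))) (.inl (Sig.ea_solv hA)),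
    cb_sup ((le_normalizer_iff_commutator_le_left.1 hZn).trans hZb) (inf_le_left.trans hZb),
    cb_comm hZb hb1]
  refine sup_le (comm_le_cent_of_norm hn h1) ?_
  rw [← commutator_eq_bot_iff_le_centralizer, commutator_comm]
  refine (qsS_commutator_eq_self_or_bot hL.2 ((cb_mono inf_le_left).trans hn)).resolve_left
    fun h3 => comp_ne_bot hL (LBal.eq_bot_of_perfect_of_le_solvable (comp_commutator hL)
      (H := cb 2 H (srOf 𝐂[A₁])) (FGS.isSolvable_map _ (FGS.isSolvable_comap _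
        (FGS.isSolvable_map _ (FGS.isSolvable_solvableRadical _)) (by
          rw [ker_subtype]; infer_instance))) ?_)
  have h4' : L ≤ cb 2 H ⁅𝐂[A₁] ⊓ H, A₂⁆ := by
    rw [cb_comm inf_le_right hb2, cb_inf_right, cb_cent (isEA_isPGroup hA) hb1]
    refine h2.ge.trans ((comm_zpowers_le h1 (cb_le_centralizer h12) ?_).trans
      (commutator_mono (le_centralizer_iff.1 h1) le_rfl))
    rw [← cb_sup hb1 hb2]
    exact mem_cb haA
  have h5 : ⁅𝐂[A₁] ⊓ H, A₂⁆ ≤ H := (commutator_mono inf_le_right hb2).trans (commutator_le_self _)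
  refine h3.ge.trans ((commutator_mono h4' le_rfl).trans ?_)
  rw [← cb_comm h5 (inf_le_left.trans hZb), commutator_comm]
  exact cb_mono ((commutator_mono (inf_le_inf_right _ hZ)
    (commutator_mono inf_le_left le_rfl)).trans (key1 hA h4 h12 ha ha2 hsep))

section
variable {A₁ A₂ : Subgroup G} (hA₁ : IsElementaryAbelian 2 A₁) (hA₂ : IsElementaryAbelian 2 A₂)
  (h41 : Nat.card A₁ = 4) (h42 : Nat.card A₂ = 4) (h12 : A₂ ≤ 𝐂[A₁])
  (hsep : ∀ c ∈ A₁ ⊔ A₂, c ≠ 1 → Sep A₁ A₂ c)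
include hA₁ hA₂ h41 h42 h12 hsep

theorem key3 {a b : G} (ha : a ∈ A₁ ⊔ A₂) (ha1 : a ≠ 1) (hb : b ∈ A₁ ⊔ A₂) (hb1 : b ≠ 1) :
    th A₁ a ⊓ th A₂ a ⊓ centralizer {b} ≤ centralizerPPrimeCore 2 b := by
  have h21 := le_centralizer_iff.1 h12
  have hA := isEA_sup hA₁ hA₂ h21
  have hc : ∀ c ∈ A₁ ⊔ A₂, A₁ ⊔ A₂ ≤ centralizer {c} := fun c hc =>
    le_centralizer_singleton_of_isElementaryAbelian hA hc
  have ha2 : a ^ 2 ^ 1 = 1 := hA.2 a ha
  have hZn : A₁ ⊔ A₂ ≤ 𝐍[th A₁ a ⊓ th A₂ a ⊓ centralizer {b}] :=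
    le_normalizer_inf (le_normalizer_inf (norm_th (hc a ha) (Sig.ea_le_cent hA le_sup_left))
      (norm_th (hc a ha) (Sig.ea_le_cent hA le_sup_right))) ((hc b hb).trans le_normalizer)
  set Z := th A₁ a ⊓ th A₂ a ⊓ centralizer {b} with hZ
  have hZO : Z ≤ centralizerPPrimeCore 2 a :=
    inf_le_left.trans (inf_le_left.trans (th_le (le_sup_left.trans (hc a ha))))
  set H := centralizer ({b} : Set G) with hH
  have hO := Grp.pPrimeCore_quotient_pPrimeCore 2 H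
  have h1 := (cb_mono hZO).trans (cb_core_le (Y := H) (a := ⟨a, hc b hb ha⟩) ha2)
  have hord : orderOf (cbHom 2 H ⟨a, hc b hb ha⟩) = 2 :=
    orderOf_cbHom (orderOf_eq_prime (hA.2 a ha) ha1)
  refine le_ppcOf_of_cb_eq_bot inf_le_right (eq_bot_of_coprime_of_centralizes hO
    ((centralizerPPrimeCore_coprime _).coprime_dvd_left (card_dvd_of_le h1))
    (h1.trans (centralizerPPrimeCore_le_centralizer_pCore (k := 1)
      (orderOf_dvd_iff_pow_eq_one.1 (by rw [hord, pow_one])))) fun L hL => ?_)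
  by_cases hne : ⁅L, zpowers (cbHom 2 H ⟨a, hc b hb ha⟩)⁆ = L
  swap
  · exact le_bot_iff.1 ((commutator_mono le_rfl h1).trans
      (comp_commute_centralizerPPrimeCore hO hord hL hne).le)
  rcases hsep b hb hb1 L hL with h | h
  · exact key2 hA₁ h41 h12 (le_sup_left.trans (hc a ha)) ha2
      (fun c h => hsep c (mem_sup_left h)) (le_sup_left.trans (hc b hb))
      (le_sup_right.trans (hc b hb)) ha (inf_le_left.trans inf_le_left) inf_le_right
      (le_sup_left.trans hZn) hL h hne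
  · exact key2 hA₂ h42 h21 (le_sup_right.trans (hc a ha)) ha2
      (fun c h h1 L hL => (hsep c (mem_sup_right h) h1 L hL).symm) (le_sup_right.trans (hc b hb))
      (le_sup_left.trans (hc b hb)) (sup_comm A₁ A₂ ▸ ha) (inf_le_left.trans inf_le_right)
      inf_le_right (le_sup_right.trans hZn) hL h hne

theorem key4 {a b : G} (ha : a ∈ A₁ ⊔ A₂) (ha1 : a ≠ 1) (hb : b ∈ A₁ ⊔ A₂) (hb1 : b ≠ 1)
    {B : Subgroup G} (hB : B ≤ A₁ ⊔ A₂) (hB1 : B ≠ ⊥) :
    th A₁ a ⊓ th A₂ a ⊓ centralizer {b} ≤ th B b := by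
  have hA := isEA_sup hA₁ hA₂ (le_centralizer_iff.1 h12)
  have hc : ∀ c ∈ A₁ ⊔ A₂, A₁ ⊔ A₂ ≤ centralizer {c} := fun c hc =>
    le_centralizer_singleton_of_isElementaryAbelian hA hc
  have hZn : A₁ ⊔ A₂ ≤ 𝐍[th A₁ a ⊓ th A₂ a ⊓ centralizer {b}] :=
    le_normalizer_inf (le_normalizer_inf (norm_th (hc a ha) (Sig.ea_le_cent hA le_sup_left))
      (norm_th (hc a ha) (Sig.ea_le_cent hA le_sup_right))) ((hc b hb).trans le_normalizer)
  have h1 := key3 hA₁ hA₂ h41 h42 h12 hsep ha ha1 hb hb1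
  have hBe := isElementaryAbelian_of_le hA hB
  rw [← Solv.coprime_commutator_sup_centralizer B _ (hB.trans hZn)
    (Sig.ea_cop hBe (Sig.not_dvd_of_le h1 (nd_core b))) (.inl (Sig.ea_solv hBe))]
  refine sup_le_sup (commutator_mono h1 le_rfl) (le_inf (inf_le_left.trans h1) ?_)
  obtain ⟨t, ht, ht1⟩ := (bot_or_exists_ne_one B).resolve_left hB1
  have h2 : 𝐂[B] ≤ centralizer {t} := centralizer_le (by simpa using ht)
  refine le_trans (le_inf ((inf_le_inf inf_le_left h2).trans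
    (key3 hA₁ hA₂ h41 h42 h12 hsep ha ha1 (hB ht) ht1)) inf_le_right)
    (Grp.le_map_pPrimeCore inf_le_right (le_normalizer_inf
      (h2.trans (centralizer_le_normalizer_centralizerPPrimeCore t)) le_normalizer)
      ((centralizerPPrimeCore_coprime t).coprime_dvd_left (card_dvd_of_le inf_le_left)))

theorem isSF_th : IsSignalizerFunctor 2 (A₁ ⊔ A₂) fun a => th A₁ a ⊓ th A₂ a := by
  have hA := isEA_sup hA₁ hA₂ (le_centralizer_iff.1 h12)
  have hc : ∀ c ∈ A₁ ⊔ A₂, A₁ ⊔ A₂ ≤ centralizer {c} := fun c hc =>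
    le_centralizer_singleton_of_isElementaryAbelian hA hc
  have h0 : ∀ a ∈ A₁ ⊔ A₂, th A₁ a ⊓ th A₂ a ≤ centralizerPPrimeCore 2 a := fun a ha =>
    inf_le_left.trans (th_le (le_sup_left.trans (hc a ha)))
  refine ⟨fun a ha _ => (h0 a ha).trans (centralizerPPrimeCore_le a),
    fun a ha _ => Sig.not_dvd_of_le (h0 a ha) (nd_core a),
    fun a ha _ b hb x => conj_mem_of_mem_normalizer (le_normalizer_inf
      (norm_th (hc a ha) (Sig.ea_le_cent hA le_sup_left))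
      (norm_th (hc a ha) (Sig.ea_le_cent hA le_sup_right)) hb),
    fun a ha h1 b hb h2 => le_inf
      (key4 hA₁ hA₂ h41 h42 h12 hsep ha h1 hb h2 le_sup_left fun h => ?_)
      (key4 hA₁ hA₂ h41 h42 h12 hsep ha h1 hb h2 le_sup_right fun h => ?_)⟩
  · rw [h, card_bot] at h41; omega
  · rw [h, card_bot] at h42; omega

end

theorem sep_of_coreSeparated {A₁ A₂ : Subgroup G} (h : IsCoreSeparated A₁ A₂) :
    ∀ c ∈ A₁ ⊔ A₂, c ≠ 1 → Sep A₁ A₂ c := by
  obtain ⟨hA₁, hA₂, -, -, -, -, h12, h⟩ := h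
  intro c hc hc1 L hL
  have hA := isEA_sup hA₁ hA₂ fun x hx y hy => (h12 x hx y hy).symm
  have hcA := le_centralizer_singleton_of_isElementaryAbelian hA hc
  obtain ⟨E, hE, rfl⟩ := exists_pcomp_map_eq_comp hL
  have key : ∀ B : Subgroup G, B ≤ centralizer {c} →
      ⁅E.map (centralizer ({c} : Set G)).subtype, B⁆ ≤ centralizerPPrimeCore 2 c →
      cb 2 _ B ≤ 𝐂[E.map (QuotientGroup.mk' (pPrimeCore 2 (centralizer ({c} : Set G))))] := by
    intro B hB h1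
    have h2 := cb_eq_bot h1
    rw [cb_comm (map_subtype_le _) hB, cb, map_subtype_subgroupOf, commutator_comm,
      commutator_eq_bot_iff_le_centralizer] at h2
    exact h2
  exact (h c hc hc1 E hE).imp (key _ (le_sup_left.trans hcA)) (key _ (le_sup_right.trans hcA))

end Cfsg.Agent.SigS
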